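import Cfsg.Agent.H26.ES3
import Cfsg.Agent.H26.ES4
import Cfsg.Agent.H10.Xsp4
import Cfsg.Agent.H13.Simple
import Cfsg.Agent.H13.GamO

/-! Existence of the coordinates. -/

set_option autoImplicit false

namespace Cfsg.Agent.SzT.C1

open Cfsg Cfsg.Agent.H10 Subgroup QuadraticMap Module

abbrev I6 : Type := (Fin 2 ⊕ Fin 2) ⊕ Fin 2
noncomputable abbrev Q6 : QuadraticForm (ZMod 2) (I6 → ZMod 2) := H13.QMinus 2 (ZMod 2) 1 1
abbrev O6 : Type := H13.OG Q6

theorem nd6 : H13.ND Q6 := H13.nd_QMinus' (by decide)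
theorem good6 : H13.Good Q6 := .inr (.inl (by simp))
theorem card_O6 : Nat.card O6 = 51840 := by
  rw [nd6.card_OG_minus (H13.not_isPlus_QMinus (by decide)) (m := 3) (by norm_num) (by simp)]
  simp [Finset.prod_range_succ]
instance : Finite O6 := Nat.finite_of_card_ne_zero (by rw [card_O6]; norm_num)
theorem index_Om6 : (H13.Om Q6).index = 2 := nd6.index_commutator_even good6 rfl (by simp)
theorem cent_Om6 {z : O6} (h : ∀ y ∈ H13.Om Q6, z * y = y * z) : z = 1 := by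
  obtain ⟨u, hu0, hu⟩ := H13.exists_singular Q6 (by simp)
  rcases nd6.eq_one_or_negOne_of_comm_sieg (by simp) hu hu0 fun x a => h _ (nd6.sieg_mem_commutator good6 x a) with e | e
  · exact e
  · exact e.trans (H13.negOne_eq_one rfl)
noncomputable def pom6 : H13.Om Q6 ≃* H13.POm Q6 :=
  QuotientGroup.quotientBot.symm.trans
    (QuotientGroup.quotientMulEquivOfEq (nd6.center_Om_eq_bot good6 (by simp) (.inl rfl)).symm)
theorem simple_Om6 : IsSimpleGroup (H13.Om Q6) :=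
  have := nd6.isSimpleGroup_POm (by simp)
  pom6.isSimpleGroup
theorem card_Om6 : Nat.card (H13.Om Q6) = 25920 := by
  have := (H13.Om Q6).index_mul_card
  rw [index_Om6, card_O6] at this; omega
theorem normal6 (M : Subgroup O6) [M.Normal] : M = ⊥ ∨ H13.Om Q6 ≤ M := by
  have := simple_Om6
  refine (Subgroup.Normal.eq_bot_or_eq_top (H := M.subgroupOf (H13.Om Q6)) inferInstance).imp (fun e => ?_)
    subgroupOf_eq_top.1
  refine eq_bot_iff.2 fun z hz => cent_Om6 fun y hy => ?_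
  have m : z * y * z⁻¹ * y⁻¹ ∈ H13.Om Q6 := mul_mem (Subgroup.Normal.conj_mem inferInstance y hy z) (inv_mem hy)
  have : (⟨_, m⟩ : H13.Om Q6) ∈ M.subgroupOf _ := by
    rw [mem_subgroupOf]
    simpa [mul_assoc] using mul_mem hz (‹M.Normal›.conj_mem _ (inv_mem hz) y)
  rw [e, mem_bot, Subtype.ext_iff] at this
  exact commutatorElement_eq_one_iff_mul_comm.1 this

abbrev W : Type := I6 → ZMod 2
noncomputable abbrev Ω : Subgroup O6 := H13.Om Q6

/-- coordinates on `Q`, as a conjunction -/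
def Co {G : Type*} [Group G] (z : G) (Q : Subgroup G) (ρ : centralizer ({z} : Set G) →* O6) (p : G → W) : Prop :=
  LX Q z ∧ ρ.range = Ω ∧ (∀ h, ρ h = 1 ↔ (h : G) ∈ Q) ∧
  (∀ {x y}, x ∈ Q → y ∈ Q → p (x * y) = p x + p y) ∧ (∀ v, ∃ x ∈ Q, p x = v) ∧
  (∀ {x}, x ∈ Q → (p x = 0 ↔ x ∈ zpowers z)) ∧
  (∀ (h : centralizer ({z} : Set G)) {x : G}, x ∈ Q → p (h * x * (h : G)⁻¹) = (ρ h).1 (p x)) ∧
  (∀ {x}, x ∈ Q → (x * x = 1 ↔ Q6 (p x) = 0)) ∧
  (∀ {x y}, x ∈ Q → y ∈ Q → (x * y = y * x ↔ polar Q6 (p x) (p y) = 0))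

theorem exists_co' {G : Type*} [Group G] [Finite G] {z : G} {Q : Subgroup G} (hl : LX Q z)
    (hc : Nat.card Q = 2 ^ 7) (hi : (Q.subgroupOf (centralizer ({z} : Set G))).index = 25920) :
    ∃ ρ p, Co z Q ρ p := by
  classical
  obtain ⟨n, c, hz⟩ := hl.toSymT.exists_ES
  have nd := c.nd_of_isExtraspecial hl.isExtraspecial
  have hn := c.card_eq_pow
  rw [hc] at hn
  replace hn := Nat.pow_right_injective (le_refl 2) hn
  let σ := nd.autHom.comp (Q.normalizerMonoidHom.comp (inclusion hl.nQ))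
  have cm : ∀ (h : centralizer ({z} : Set G)) {x}, x ∈ Q → h * x * (h : G)⁻¹ ∈ Q := fun h x =>
    hl.conj_mem (mem_centralizer_singleton_iff.mp h.2)
  have act : ∀ h x hx, σ h (c.π ⟨x, hx⟩) = c.π ⟨_, cm h hx⟩ := fun h x hx => nd.autHom_π _ _
  have zq : ∀ h q hq, σ h (c.π ⟨q, hq⟩) = c.π ⟨q, hq⟩ → h * q * (h : G)⁻¹ * q⁻¹ ∈ zpowers z := fun h q hq e =>
    (hz (⟨_, cm h hq⟩ * ⟨q, hq⟩⁻¹)).mp (by rw [c.mem_Z, c.π_mul, ← act h q hq, e, c.π_inv]; simp)
  have ker : ∀ h, σ h = 1 ↔ (h : G) ∈ Q := fun h => ⟨fun e => hl.hF h (mem_centralizer_singleton_iff.mp h.2) fun q hq =>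
    zq h q hq (by rw [e]; rfl), fun e => LinearEquiv.ext fun v => by
      obtain ⟨x, rfl⟩ := c.surj v
      rw [act h x x.2]
      exact (congrArg c.π (c.conj_eq ⟨h, e⟩ x)).trans (by simp [c.π_mul])⟩
  have h6 : finrank (ZMod 2) (Fin n → ZMod 2) = 2 * 3 := by omega
  have nq : H13.ND c.Q := fun v hv => nd v fun w => c.polar_Q v w ▸ hv w
  have qa : ∀ h v, c.Q (σ h v) = c.Q v := fun h v => nd.Q_autHom _ v
  have rc : ∀ {K : Type} [Group K] (f : centralizer ({z} : Set G) →* K), (∀ h, f h = 1 ↔ (h : G) ∈ Q) →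
      Nat.card f.range = 25920 := fun f hf => by
    rw [← index_ker, ← hi]
    congr 1
    exact Subgroup.ext hf
  have np : ¬ H13.IsPlus c.Q := fun hP => by
    have h1 := card_subgroup_dvd_card (σ.codRestrict (H13.OG c.Q) qa).range
    rw [rc _ fun h => (Subtype.ext_iff.trans (ker h)), nq.card_OG_plus hP (m := 3) (by norm_num) h6] at h1
    revert h1
    simp [Finset.prod_range_succ]
  obtain ⟨e, he⟩ := nq.exists_isometry_of_isPlus_iff nd6 h6 (by simp)
    (iff_of_false np (H13.not_isPlus_QMinus (by decide)))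
  let ρ : centralizer ({z} : Set G) →* O6 := MonoidHom.mk'
    (fun h => ⟨(e.symm.trans (σ h)).trans e, fun v => by
      rw [LinearEquiv.trans_apply, LinearEquiv.trans_apply, he, qa, ← he, e.apply_symm_apply]⟩)
    fun a b => Subtype.ext (LinearEquiv.ext fun v => by
      show e (σ (a * b) (e.symm v)) = e (σ a (e.symm (e (σ b (e.symm v)))))
      rw [e.symm_apply_apply, map_mul]; rfl)
  have ρa : ∀ h v, (ρ h).1 (e v) = e (σ h v) := fun h v => by
    show e (σ h (e.symm (e v))) = _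
    rw [e.symm_apply_apply]
  have kρ : ∀ h, ρ h = 1 ↔ (h : G) ∈ Q := fun h => by
    rw [← ker]
    exact ⟨fun h => LinearEquiv.ext fun v => e.injective (by rw [← ρa, h]; rfl),
      fun h => Subtype.ext (LinearEquiv.ext fun v => by
        obtain ⟨v, rfl⟩ := e.surjective v
        rw [ρa, h]; rfl)⟩
  have cρ := rc ρ kρ
  have iρ : ρ.range.index = 2 := by
    have := ρ.range.index_mul_card
    rw [cρ, card_O6] at this; omega
  haveI := normal_of_index_eq_two iρ
  have hr : ρ.range = Ω := ((eq_of_le_of_card_ge ((normal6 ρ.range).resolve_left fun h => by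
    rw [h, card_bot] at cρ; omega) (by rw [cρ, card_Om6]))).symm
  let p : G → W := fun x => if h : x ∈ Q then e (c.π ⟨x, h⟩) else 0
  have pa : ∀ {x} (h : x ∈ Q), p x = e (c.π ⟨x, h⟩) := fun h => dif_pos h
  refine ⟨ρ, p, hl, hr, kρ, fun hx hy => ?_, fun v => ?_, fun hx => ?_, fun h x hx => ?_, fun hx => ?_,
    fun {x y} hx hy => ?_⟩
  · rw [pa hx, pa hy, pa (mul_mem hx hy), ← map_add, ← c.π_mul]; rfl
  · obtain ⟨x, h⟩ := c.surj (e.symm v)
    exact ⟨x, x.2, by rw [pa x.2, h, e.apply_symm_apply]⟩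
  · rw [pa hx, map_eq_zero_iff _ e.injective, ← c.mem_Z, hz]
  · rw [pa hx, pa (cm h hx), ρa, act]
  · rw [pa hx, he, ← c.sq_eq_one_iff, pow_two, Subtype.ext_iff]; rfl
  · rw [pa hx, pa hy, polar, ← map_add, he, he, he, ← polar, c.polar_Q, ← c.commute_iff, Subtype.ext_iff]; rfl

theorem exists_co {G : Type*} [Group G] [Finite G] (z : G) (hz : orderOf z = 2)
    (Q : Subgroup (Subgroup.centralizer ({z} : Set G))) [Q.Normal]
    (hF : Cfsg.generalizedFittingSubgroup (Subgroup.centralizer ({z} : Set G)) = Q)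
    (hQ : Cfsg.IsExtraspecial 2 Q) (hcard : Nat.card Q = 2 ^ 7)
    (e : (Subgroup.centralizer ({z} : Set G)) ⧸ Q ≃* Cfsg.Omega (ZMod 2) (Cfsg.quadFormMinus 2 (ZMod 2) 1 1)) :
    ∃ ρ p, Co z (Q.map (centralizer ({z} : Set G)).subtype) ρ p := by
  refine exists_co' (lx_of_fstar hz (by rw [FstarOf_def, hF]) ?_) (by rw [card_subtype, hcard]) ?_
  · exact H26.isExtraspecial_congr hQ (equivMapOfInjective _ _ (subtype_injective _))
  · rw [subgroupOf, comap_map_eq_self_of_injective (subtype_injective _), index, Nat.card_congr e.toEquiv,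
      ← H13.coe_QMinus, Nat.card_congr (H13.omegaEquiv Q6).toEquiv, card_Om6]

end Cfsg.Agent.SzT.C1
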