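import Cfsg.Agent.SzT.G3

/-! The two classes of involutions. -/

set_option autoImplicit false

namespace Cfsg.Agent.SzT

open Cfsg Cfsg.Agent.H10 Cfsg.Agent.H29 Subgroup QuadraticMap

variable {G : Type*} [Group G]

/-- congruence modulo `v` -/
def Cg (v x y : W) : Prop := x = y ∨ x = y + v

theorem Cg.symm {v x y : W} (h : Cg v x y) : Cg v y x :=
  h.imp Eq.symm fun e => by rw [e, add_assoc, ww, add_zero]

theorem Cg.trans {v x y w : W} (h : Cg v x y) (h' : Cg v y w) : Cg v x w := by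
  rcases h with rfl | rfl
  · exact h'
  · rcases h' with rfl | rfl
    · exact .inr rfl
    · exact .inl (by rw [add_assoc, ww, add_zero])

theorem Cg.map {v x y : W} {g : O6} (h : Cg v x y) (e : g.1 v = v) : Cg v (g.1 x) (g.1 y) :=
  h.imp (congrArg _) fun e' => by rw [e', map_add, e]

theorem cj_sq {y c : G} (h : y * y = 1) : c * y * c⁻¹ * (c * y * c⁻¹) = 1 := by
  calc _ = c * (y * y) * c⁻¹ := by group
    _ = _ := by rw [h]; group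

theorem cj_cm {x y : G} (c : G) (h : x * y = y * x) : c * x * c⁻¹ * (c * y * c⁻¹) = c * y * c⁻¹ * (c * x * c⁻¹) := by
  calc _ = c * (x * y) * c⁻¹ := by group
    _ = _ := by rw [h]; group

namespace Cx
variable {z : G} {Q : Subgroup G} {ρ : centralizer ({z} : Set G) →* O6} {p : G → W} {v : W} {s b m a a' r u x y y' c t : G}
  (h : Cx z Q ρ p v s b m) [Finite G]
include h

theorem in_conj (hy : In Q z y t) (h2 : y * y = 1) (h1 : y ≠ 1) : IsConj y z := by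
  obtain ⟨k, -, hk⟩ := hy
  rw [isConj_iff]
  by_cases e : k⁻¹ * y * k = z
  · exact ⟨k⁻¹, by rw [inv_inv, e]⟩
  · obtain ⟨c, -, e'⟩ := toS h.co h.of h.sQ h.ps hk (by simpa using cj_sq (c := k⁻¹) h2)
      (fun e => h1 (by rw [show y = k * (k⁻¹ * y * k) * k⁻¹ by group, e]; group)) e
    refine ⟨m⁻¹ * c * k⁻¹, ?_⟩
    calc _ = m⁻¹ * (c * (k⁻¹ * y * k) * c⁻¹) * m := by group
      _ = _ := by rw [e', ← h.mz]; group

omit [Finite G] in
theorem cv (hz : c * z = z * c) (hs : c * s = s * c) : (sg ρ c).1 v = v := by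
  rw [← h.ps, ← h.co.sg_act hz h.sQ, hs, mul_inv_cancel_right]

theorem vmul (hu : Vm z s u) (hx : Vm z s x) : Vm z s (u * x) :=
  h.QP (mul_mem (h.vQ hu) (h.vQ hx)) ((h.vP hu).mul h.lx (h.vP hx))

theorem tbV (hy : TB Q p v s m y) (hu : Vm z s u) : IsConj y (u * y) := by
  obtain ⟨a, ha, a', ha', hs, hs', ⟨-, -, -, -, e⟩, rfl⟩ := hy
  have k1 := h.k1 ha hs ha' hs' e
  have k0 := h.k0 ha' hs' ha' hs' (pvv _)
  have n := h.co.ncm ha' ha (polar_comm Q6 _ _ ▸ e)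
  have az := h.lx.cent _ ha
  have c : a * (z * s) = z * s * a := (Commute.mul_right az hs :)
  have zs2 : z * s * (z * s) = 1 := by rw [mul_assoc, ← mul_assoc s, h.sz, mul_assoc, h.ss, mul_one, h.zz]
  generalize m * a' * m⁻¹ = r at *
  have e1 : a * (a * r) * a⁻¹ = z * s * (a * r) := by
    calc _ = a * (z * s * (z * s)) * (a * r) * a⁻¹ := by rw [zs2]; group
      _ = a * (z * s) * (z * s * a * r) * a⁻¹ := by group
      _ = _ := by rw [← k1, c]; group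
  have e2 : a' * (a * r) * a'⁻¹ = z * (a * r) := by
    calc _ = a' * a * r * a'⁻¹ := by group
      _ = z * a * (a' * r) * a'⁻¹ := by rw [n]; group
      _ = _ := by rw [← k0]; group
  rw [isConj_iff]
  rcases hu with rfl | rfl | rfl | rfl
  · exact ⟨1, by simp⟩
  · exact ⟨_, e2⟩
  · refine ⟨a * a', ?_⟩
    calc _ = a * (a' * (a * r) * a'⁻¹) * a⁻¹ := by group
      _ = a * z * a⁻¹ * (a * (a * r) * a⁻¹) := by rw [e2]; group
      _ = z * z * (u * (a * r)) := by rw [e1, az]; group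
      _ = _ := by rw [h.zz, one_mul]
  · exact ⟨_, e1⟩

theorem cjw (hz : c * z = z * c) (hs : c * s = s * c) (ha : a ∈ Q) (has : a * s = s * a) :
    Cg v ((sg ρ (c * (m * a * m⁻¹) * c⁻¹)).1 (p b) + p b) ((sg ρ c).1 (p a)) := by
  rw [sg_cj hz (h.psiz ha has)]
  exact Cg.trans (ee_conj h.hv h.hβ (h.eeA ha has) (h.cv hz hs)).2 (Cg.map (h.wpsi ha has) (h.cv hz hs))

theorem tb_conj (hy : TB Q p v s m y) (hy' : TB Q p v s m y') : IsConj y y' := by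
  obtain ⟨a, ha, a', ha', hs, hs', ap, rfl⟩ := hy
  have hy2 := hy'
  obtain ⟨d, hd, d', hd', ds, ds', dp, rfl⟩ := hy'
  obtain ⟨g, hg, e, e1, e2⟩ := h.of.f5 _ _ _ _ ap dp
  obtain ⟨c, cz, cs, rfl⟩ := h.liftv hg e
  have v1 := h.pv2 (h.lx.conj_mem cz ha) hd (h.co.sg_act cz ha ▸ e1)
  have z2 := cz_cj cz (h.psiz ha' hs')
  have i2 := (h.psiP ha').cj' cs
  have e3 := ee_ext h.hv h.hβ (h.eeB i2 z2) (h.eeA hd' ds') (((h.cjw cz cs ha' hs').trans e2).trans (Cg.symm (h.wpsi hd' ds')))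
  have v2 := h.QP (h.co.sg_quo z2 (h.psiz hd' ds') e3) (i2.mul h.lx (h.psiP hd').inv)
  have c2 := v2.cm (h.lx.cent _ hd) ds
  refine IsConj.trans (isConj_iff.2 ⟨c, ?_⟩) (h.tbV hy2 (h.vmul v1 v2)).symm
  generalize m * a' * m⁻¹ = r at *
  generalize m * d' * m⁻¹ = r' at *
  calc _ = c * a * c⁻¹ * d⁻¹ * (d * (c * r * c⁻¹ * r'⁻¹)) * r' := by group
    _ = _ := by rw [c2]; group

theorem sing (hy : In Q z y t) (ht : t ∈ Q) (hz : y * z = z * y) (h2 : y * y = 1) (w : W) : Q6 ((sg ρ y).1 w + w) = 0 := by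
  by_cases e : t = z
  · rw [h.co.sg_Q ((e ▸ hy).mem h.lx), H13.OG_one_apply, ww, map_zero]
  obtain ⟨c, cz, e1⟩ := toS h.co h.of h.sQ h.ps ht (hy.tt h.lx) (hy.ne h.lx) e
  obtain ⟨a, ha, hs, e2⟩ := h.psiS (e1 ▸ hy.cj c) (cz_cj cz hz)
  have a2 : a * a = 1 := by
    have := cj_sq (c := m⁻¹) (e2 ▸ cj_sq (c := c) h2)
    rw [← this]; group
  have := ee_sing h.hv h.hβ (h.eeA ha hs) (by rw [h.wq ha hs, (h.co.sq ha).1 a2]) ((sg ρ c).1 w)
  rwa [e2, sg_cj cz hz, H13.OG_mul_apply, H13.OG_mul_apply, H13.OG_inv_apply_apply, ← map_add, H13.OG_map] at this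

omit [Finite G] in
theorem tb_z (hy : TB Q p v s m y) : y * z = z * y := by
  obtain ⟨a, ha, a', ha', hs, hs', -, rfl⟩ := hy
  exact cz_mul (h.lx.cent _ ha) (h.psiz ha' hs')

theorem tb_2 (hy : TB Q p v s m y) : y * y = 1 := by
  obtain ⟨a, ha, a', ha', hs, hs', ⟨-, -, e1, e2, e⟩, rfl⟩ := hy
  obtain ⟨k, ⟨f, -⟩ | ⟨-, rfl⟩, e3⟩ := h.sqR ha hs ha' hs'
  · exact absurd (f.symm.trans e) zero_ne_one
  · rw [e3, h.co.sqz ha e1, h.co.sqz ha' e2, h.mz, mul_assoc z, h.sz, ← mul_assoc, h.zz, one_mul, h.ss]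

omit [Finite G] in
theorem sg_tb (ha : a ∈ Q) (ha' : a' ∈ Q) (hs' : a' * s = s * a') : sg ρ (a * (m * a' * m⁻¹)) = sg ρ (m * a' * m⁻¹) := by
  rw [sg_mul (h.lx.cent _ ha) (h.psiz ha' hs'), h.co.sg_Q ha, one_mul]

theorem tb_not (hy : TB Q p v s m y) (ht : t ∈ Q) : ¬ In Q z y t := fun i => by
  have := h.sing i ht (h.tb_z hy) (h.tb_2 hy) (p b)
  obtain ⟨a, ha, a', ha', hs, hs', ⟨-, -, -, e2, -⟩, rfl⟩ := hy
  rw [h.sg_tb ha ha' hs', h.wq ha' hs', e2] at this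
  exact one_ne_zero this

theorem tb_cent (hy : TB Q p v s m y) (cz : c * z = z * c) (cy : c * y = y * c) : c * s * c⁻¹ = s ∨ c * s * c⁻¹ = z * s := by
  have e := congrArg (sg ρ) cy
  rw [sg_mul cz (h.tb_z hy), sg_mul (h.tb_z hy) cz] at e
  obtain ⟨a, ha, a', ha', hs, hs', ⟨e0, -, -, e2, e3⟩, rfl⟩ := hy
  rw [h.sg_tb ha ha' hs'] at e
  refine h.co.peq (h.lx.conj_mem cz h.sQ) h.sQ ?_
  rw [h.co.sg_act cz h.sQ, h.ps]
  exact ee_fix h.hv h.hβ h.of.v0.1 (h.eeA ha' hs') (by rw [h.wq ha' hs', e2]) e0 (by rw [h.wpol ha' hs' e0, e3]) e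

theorem tb_sq (hy : TB Q p v s m y) (cz : c * z = z * c) (cs : c * s = s * c) (cy : c * y = y * c) : Vm z s (c * c) := by
  obtain ⟨a, ha, a', ha', hs, hs', ap, rfl⟩ := hy
  have w := h.cjw cz cs ha' hs'
  have w' := h.wpsi ha' hs'
  have rz := h.psiz ha' hs'
  have hP := h.psiP ha'
  generalize m * a' * m⁻¹ = r at *
  have e1 : a⁻¹ * (c * a * c⁻¹) = r * (c * r * c⁻¹)⁻¹ := by
    calc _ = a⁻¹ * (c * (a * r)) * r⁻¹ * c⁻¹ := by group
      _ = _ := by rw [cy]; group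
  have q1 := mul_mem (inv_mem ha) (h.lx.conj_mem cz ha)
  have v1 := h.vp (h.QP q1 (e1 ▸ hP.mul h.lx (hP.cj' cs).inv))
  rw [h.co.mul (inv_mem ha) (h.lx.conj_mem cz ha), h.co.pinv ha, h.co.sg_act cz ha] at v1
  have e2 : sg ρ (c * r * c⁻¹) = sg ρ r := by
    have := h.co.sg_Q (e1 ▸ q1)
    rw [sg_mul rz (cz_inv (cz_cj cz rz)), sg_inv (cz_cj cz rz), mul_inv_eq_one] at this
    exact this.symm
  rw [e2] at w
  obtain ⟨q, hq, d, hd, ds, e⟩ := h.dec cz (h.of.f6 _ _ ap _ (h.co.sg_mem cz) (h.cv cz cs)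
    (v1.imp (fun e => (weq.1 e).symm) fun e => by rw [← e, ← add_assoc, ww, zero_add]) (w.symm.trans w'))
  have qs : q * s = s * q := by
    have : q = c * (m * d * m⁻¹)⁻¹ := by rw [e]; group
    rw [this]; exact cz_mul cs (cz_inv (h.psis hd))
  rw [e]; exact h.sqV hq qs hd ds

theorem tb_nc (hy : TB Q p v s m y) : ¬ IsConj z y := fun hc => by
  obtain ⟨k0, e0⟩ := isConj_iff.1 hc
  have yz := h.tb_z hy
  obtain ⟨c, cz, hcl⟩ := h.cls (y := k0⁻¹ * z * k0⁻¹⁻¹) (by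
    have := cj_cm k0⁻¹ yz.symm
    rwa [show k0⁻¹ * y * k0⁻¹⁻¹ = z by rw [← e0]; group] at this) (cj_sq h.zz)
  obtain ⟨k, hk⟩ : ∃ k, k = k0 * c⁻¹ := ⟨_, rfl⟩
  have e1 : k * z * k⁻¹ = y := by
    calc _ = k0 * (c⁻¹ * z) * c * k0⁻¹ := by rw [hk]; group
      _ = _ := by rw [cz_inv cz, ← e0]; group
  rw [show c * (k0⁻¹ * z * k0⁻¹⁻¹) * c⁻¹ = k⁻¹ * z * k by rw [hk]; group] at hcl
  have e2 : k * (k⁻¹ * z * k) * k⁻¹ = z := by group
  have iz : In Q z z z := in_of_mem h.lx.mem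
  have key : ∀ t x, t ∈ Q → In Q z x t → ¬ In Q z t y := fun t x ht hx i => by
    by_cases e : t = y
    · exact h.tb_not hy ht (e ▸ hx.self h.lx)
    · exact h.tb_not hy ht (i.symm h.lx hx e)
  have key2 : ∀ t, t ∈ Q → ¬ In Q z (k⁻¹ * z * k) t := fun t ht i => by
    have i1 := e2 ▸ i.cj k
    have i2 := e1 ▸ (in_of_mem (z := z) ht).cj k
    by_cases e : z = k * t * k⁻¹
    · exact key z z h.lx.mem iz (by rwa [← e] at i2)
    · exact key _ z ((i1.symm h.lx iz e).mem h.lx) i1 i2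
  rcases hcl with i | i | i | i
  · exact key2 _ h.lx.mem i
  · exact key2 _ h.sQ i
  · exact key2 _ (mul_mem h.lx.mem h.sQ) i
  have ey : k⁻¹ * y * k⁻¹⁻¹ = z := by rw [← e1]; group
  have A : ∀ c, c * z = z * c → c * y = y * c → k⁻¹ * c * k⁻¹⁻¹ * z = z * (k⁻¹ * c * k⁻¹⁻¹) ∧
      k⁻¹ * c * k⁻¹⁻¹ * (k⁻¹ * z * k) = k⁻¹ * z * k * (k⁻¹ * c * k⁻¹⁻¹) := fun c c1 c2 =>
    ⟨by have := cj_cm k⁻¹ c2; rwa [ey] at this, by simpa only [inv_inv] using cj_cm k⁻¹ c1⟩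
  have B : ∀ c x, c * z = z * c → c * y = y * c → c * c ∈ Q → In Q z x (c * c) →
      k⁻¹ * c * k⁻¹⁻¹ * s * (k⁻¹ * c * k⁻¹⁻¹)⁻¹ = z * s := fun c x c1 c2 c3 c4 =>
    (h.tb_cent i (A c c1 c2).1 (A c c1 c2).2).resolve_left fun e => key _ x c3 c4 (by
      have := e1 ▸ (in_of_mem (z := z) (h.vQ (h.tb_sq i (A c c1 c2).1 (mul_inv_eq_iff_eq_mul.1 e) (A c c1 c2).2))).cj k
      convert this using 1; group)
  obtain ⟨a, ha, a', ha', hs, hs', ap, hy'⟩ := hy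
  obtain ⟨n, n1, n2, n3, n4⟩ := h.of.f9 _ _ ap
  obtain ⟨d, hd, rfl⟩ := h.co.surj n
  have ds := (h.perp hd).2 n2
  have d2 := h.co.sqz hd n1
  have dz := h.lx.cent _ hd
  have rz := h.psiz hd ds
  have r2 : m * d * m⁻¹ * (m * d * m⁻¹) = s := by rw [← h.mz, ← d2]; group
  have dy : d * y = y * d := hy' ▸ (Commute.mul_right ((h.co.cm hd ha).2 n3) (h.k0 hd ds ha' hs' n4).symm :)
  have ry : m * d * m⁻¹ * y = y * (m * d * m⁻¹) := hy' ▸
    (Commute.mul_right (h.k0 ha hs hd ds (polar_comm Q6 _ _ ▸ n3)) (cj_cm m ((h.co.cm hd ha').2 n4)) :)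
  have k0 := h.k0 hd ds hd ds (pvv _)
  generalize m * d * m⁻¹ = r at *
  have dr2 : d * r * (d * r) = z * s := by
    calc _ = d * (r * d) * r := by group
      _ = d * d * (r * r) := by rw [k0]; group
      _ = _ := by rw [d2, r2]
  have B1 := B d z dz dy (d2 ▸ h.lx.mem) (d2 ▸ iz)
  have B2 := B r s rz ry (r2 ▸ h.sQ) (r2 ▸ h.sP)
  have B3 := B (d * r) _ (cz_mul dz rz) (cz_mul dy ry) (dr2 ▸ mul_mem h.lx.mem h.sQ) (dr2 ▸ h.ms ▸ h.sP.cj m)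
  have A1 := (A d dz dy).1
  have e3 : k⁻¹ * (d * r) * k⁻¹⁻¹ = k⁻¹ * d * k⁻¹⁻¹ * (k⁻¹ * r * k⁻¹⁻¹) := by group
  rw [e3] at B3
  generalize k⁻¹ * d * k⁻¹⁻¹ = d' at *
  generalize k⁻¹ * r * k⁻¹⁻¹ = r' at *
  have : z * s = z * (z * s) := by
    calc _ = d' * (r' * s * r'⁻¹) * d'⁻¹ := by rw [← B3]; group
      _ = d' * z * d'⁻¹ * (d' * s * d'⁻¹) := by rw [B2]; group
      _ = _ := by rw [B1, A1, mul_inv_cancel_right]
  exact h.lx.ne_one (by simpa using this)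

theorem main : ∃ a b : G, orderOf a = 2 ∧ orderOf b = 2 ∧ ¬ IsConj a b ∧ ∀ x : G, orderOf x = 2 → IsConj x a ∨ IsConj x b := by
  obtain ⟨w, w', ap⟩ := h.of.f8
  obtain ⟨a, ha, rfl⟩ := h.co.surj w
  obtain ⟨a', ha', rfl⟩ := h.co.surj w'
  have hy : TB Q p v s m (a * (m * a' * m⁻¹)) := ⟨a, ha, a', ha', (h.perp ha).2 ap.1, (h.perp ha').2 ap.2.1, ap, rfl⟩
  refine ⟨z, a * (m * a' * m⁻¹), h.lx.ord, orderOf_eq_prime (by rw [pow_two]; exact h.tb_2 hy) fun e =>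
    h.tb_not hy h.lx.mem (e ▸ in_of_mem Q.one_mem), h.tb_nc hy, fun x hx => ?_⟩
  have x2 : x * x = 1 := by rw [← pow_two, ← hx, pow_orderOf_eq_one]
  have x1 : x ≠ 1 := fun e => by simp [e] at hx
  obtain ⟨k, hk⟩ := syl h.lx x2
  obtain ⟨c, -, hc⟩ := h.cls hk (cj_sq x2)
  have j : IsConj x (c * (k * x * k⁻¹) * c⁻¹) := isConj_iff.2 ⟨c * k, by group⟩
  have j2 := cj_sq (c := c) (cj_sq (c := k) x2)
  have j1 : c * (k * x * k⁻¹) * c⁻¹ ≠ 1 := by simpa using x1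
  rcases hc with i | i | i | i
  exacts [.inl (j.trans (h.in_conj i j2 j1)), .inl (j.trans (h.in_conj i j2 j1)), .inl (j.trans (h.in_conj i j2 j1)),
    .inr (j.trans (h.tb_conj i hy))]

end Cx

theorem two_classes [Finite G] {z : G} {Q : Subgroup G} {ρ : centralizer ({z} : Set G) →* O6} {p : G → W} {v : W} {g : G}
    (co : Co z Q ρ p) (of : OF v) (hg : g * z * g⁻¹ ∈ Q) (ne : g * z * g⁻¹ ≠ z) :
    ∃ a b : G, orderOf a = 2 ∧ orderOf b = 2 ∧ ¬ IsConj a b ∧ ∀ x : G, orderOf x = 2 → IsConj x a ∨ IsConj x b := by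
  obtain ⟨s, sQ, ps⟩ := co.surj v
  have lx := co.lx
  obtain ⟨c, -, e⟩ := toS co of sQ ps hg (cj_sq lx.zz) (lx.conj g).ne_one ne
  have sP : In Q z s s := e ▸ ((in_of_mem lx.mem).cj g).cj c
  have snz : s ≠ z := fun e => of.v0.1 (by rw [← ps, e, co.pz])
  obtain ⟨b, hb, bs⟩ := (in_of_mem sQ).exb lx (sP.tt lx) (sP.ne lx) snz
  obtain ⟨d, hd, dz⟩ := ((in_of_mem sQ).symm lx sP snz).exb lx lx.zz lx.ne_one snz.symm
  have bQ := hb.mem lx
  refine Cx.main (s := s) (b := b) (m := b⁻¹ * d) ⟨co, of, sQ, ps, bQ, bs, by simpa using hd, ?_⟩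
  calc _ = b⁻¹ * (d * z * d⁻¹) * b := by group
    _ = _ := by rw [dz, lx.cent _ sQ, ← bs]; group

end Cfsg.Agent.SzT
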