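import Cfsg.Agent.H13.Spinor
import Cfsg.Agent.H13.Bridge
import Cfsg.Agent.H13.Witt
import Cfsg.Agent.H29.OH1

/-! Facts on `Ω₆⁻(2)` and the stabiliser of a singular vector. -/

set_option autoImplicit false
set_option synthInstance.maxSize 4000
set_option synthInstance.maxHeartbeats 200000

namespace Cfsg.Agent.SzT.O1

open Cfsg Cfsg.Agent.H13 Cfsg.Agent.H29 Subgroup QuadraticMap Module

abbrev V6 : Type := (Fin 2 ⊕ Fin 2) ⊕ Fin 2 → ZMod 2
noncomputable abbrev q : QuadraticForm (ZMod 2) V6 := QMinus 2 (ZMod 2) 1 1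

/-- basis vectors -/
def bv (i : (Fin 2 ⊕ Fin 2) ⊕ Fin 2) : V6 := fun j => if j = i then 1 else 0
abbrev vv : V6 := bv (.inl (.inl 0))
abbrev x0 : V6 := bv (.inl (.inr 0))
abbrev ee : V6 := bv (.inl (.inl 1))
abbrev ff : V6 := bv (.inl (.inr 1))
abbrev a0 : V6 := bv (.inr 0)
abbrev w0 : V6 := bv (.inr 1)

/-- `g` fixes `v` and acts trivially on `v^⊥ / v` -/
def E (g : OG q) : Prop := g.1 vv = vv ∧ ∀ a, polar q a vv = 0 → g.1 a = a ∨ g.1 a = a + vv

/-- an ordered basis of an anisotropic plane orthogonal to `v` -/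
def A (a w : V6) : Prop := polar q a vv = 0 ∧ polar q w vv = 0 ∧ q a = 1 ∧ q w = 1 ∧ polar q a w = 1

theorem nd : ND q := nd_QMinus' (by decide)
theorem good : Good q := .inr (.inl (by simp))
theorem idx : (Om q).index = 2 := nd.index_commutator_even good rfl (by simp)
theorem rn {n : V6} (h : q n = 1) : refl q n ∉ Om q := by
  rw [nd.mem_commutator_iff_two good rfl, nd.rk_refl (by simp [h])]; decide
theorem mulr {n : V6} (h : q n = 1) {g : OG q} (hg : g ∉ Om q) : g * refl q n ∈ Om q :=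
  (mul_mem_iff_of_index_two idx).2 (iff_of_false hg (rn h))

theorem v0 : vv ≠ 0 ∧ q vv = 0 := by decide +kernel

theorem f7 : ∀ a w, polar q a vv = 0 → polar q w vv = 0 → q a = 0 → q w = 0 → polar q a w = 0 →
    a = 0 ∨ a = vv ∨ w = 0 ∨ w = vv ∨ a = w ∨ a = w + vv := by
  have : ∀ a, polar q a vv = 0 → q a = 0 → ∀ w, polar q w vv = 0 → q w = 0 → polar q a w = 0 →
    a = 0 ∨ a = vv ∨ w = 0 ∨ w = vv ∨ a = w ∨ a = w + vv := by decide +kernel
  exact fun a w h1 h2 h3 => this a h1 h3 w h2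

theorem A0 : A a0 w0 := by unfold A; decide +kernel

theorem f8 : ∃ a w, A a w := ⟨_, _, A0⟩

theorem f1 (a : V6) (h0 : a ≠ 0) (h : q a = 0) : ∃ g ∈ Om q, g.1 a = vv := by
  obtain ⟨g, g1, g2⟩ := witt_quad_family q nd (fun _ : Unit => vv) (fun _ => a) (linearIndependent_unique_iff.2 v0.1)
    (linearIndependent_unique_iff.2 h0) (fun _ _ => by rw [polar_self2, polar_self2]) fun _ => h.trans v0.2.symm
  have e : ∀ k : OG q, k.1 vv = a → k ∈ Om q → ∃ g ∈ Om q, g.1 a = vv := fun k h1 h2 =>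
    ⟨k⁻¹, inv_mem h2, by rw [← h1, OG_inv_apply_apply]⟩
  by_cases hg : (⟨g, g1⟩ : OG q) ∈ Om q
  · exact e _ (g2 ()) hg
  · refine e _ ?_ (mulr (n := a0) (by decide +kernel) hg)
    rw [OG_mul_apply, refl_apply_of_perp (by decide +kernel)]
    exact g2 ()

theorem f4 (u : V6) (h1 : q u = 0) (h2 : polar q u vv = 0) (h3 : u ≠ 0) (h4 : u ≠ vv) :
    ∃ g ∈ Om q, g.1 vv = vv ∧ q (u + g.1 u) = 1 := by
  obtain ⟨⟨n, n1, n2, n3⟩, m, m1, m2, m3⟩ := (by decide +kernel : ∀ u, q u = 0 → polar q u vv = 0 → u ≠ 0 → u ≠ vv →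
    (∃ n, q n = 1 ∧ polar q n vv = 0 ∧ polar q n u = 1) ∧ ∃ n, q n = 1 ∧ polar q n vv = 0 ∧ polar q n u = 0) u h1 h2 h3 h4
  refine ⟨_, mulr m1 (rn n1), ?_, ?_⟩
  · rw [OG_mul_apply, refl_apply_of_perp m2, refl_apply_of_perp n2]
  · rw [OG_mul_apply, refl_apply_of_perp m3, refl2 n1, n3, one_smul, ← add_assoc, add_self2, zero_add, n1]

theorem li {a w : V6} (h : A a w) : LinearIndependent (ZMod 2) ![vv, a, w] := by
  obtain ⟨h1, h2, -, -, h3⟩ := h
  refine Fintype.linearIndependent_iff.2 fun c hc => ?_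
  simp only [Fin.sum_univ_three, Matrix.cons_val] at hc
  have e1 := congrArg (polar q a) hc
  have e2 := congrArg (polar q w) hc
  simp only [polar_add_right, polar_smul_right, h1, h2, h3, polar_comm q w a, polar_self2, polar_zero_right, smul_eq_mul,
    mul_zero, mul_one, zero_add, add_zero] at e1 e2
  rw [e1, e2, zero_smul, zero_smul, add_zero, add_zero, smul_eq_zero_iff_left v0.1] at hc
  intro i
  fin_cases i
  exacts [hc, e2, e1]

theorem std {a w : V6} (h : A a w) : ∃ g ∈ Om q, g.1 vv = vv ∧ g.1 a0 = a ∧ g.1 w0 = w := by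
  obtain ⟨g, g1, g2⟩ := witt_quad_family q nd _ _ (li A0) (li h) (fun i j => by
    obtain ⟨h1, h2, -, -, h3⟩ := h
    obtain ⟨k1, k2, -, -, k3⟩ := A0
    fin_cases i <;> fin_cases j <;>
      simp [show (2 : ZMod 2) = 0 from rfl, h1, h2, h3, k1, k2, k3, polar_comm q vv, polar_comm q w a, polar_comm q w0 a0]) fun i => by
    fin_cases i
    exacts [rfl, h.2.2.1.trans A0.2.2.1.symm, h.2.2.2.1.trans A0.2.2.2.1.symm]
  by_cases hg : (⟨g, g1⟩ : OG q) ∈ Om q
  · exact ⟨_, hg, g2 0, g2 1, g2 2⟩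
  · refine ⟨_, mulr (n := ee + ff) (by decide +kernel) hg, ?_, ?_, ?_⟩ <;>
      rw [OG_mul_apply, refl_apply_of_perp (by decide +kernel)]
    exacts [g2 0, g2 1, g2 2]

theorem f5 (a w a' w' : V6) (h : A a w) (h' : A a' w') :
    ∃ g ∈ Om q, g.1 vv = vv ∧ (g.1 a = a' ∨ g.1 a = a' + vv) ∧ (g.1 w = w' ∨ g.1 w = w' + vv) := by
  obtain ⟨g, g0, g1, rfl, rfl⟩ := std h
  obtain ⟨k, k0, k1, rfl, rfl⟩ := std h'
  refine ⟨k * g⁻¹, mul_mem k0 (inv_mem g0), ?_, .inl ?_, .inl ?_⟩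
  · rw [OG_mul_apply, ← g1, OG_inv_apply_apply, g1, k1]
  all_goals rw [OG_mul_apply, OG_inv_apply_apply]

theorem f9 (a w : V6) (h : A a w) : ∃ n, q n = 1 ∧ polar q n vv = 0 ∧ polar q n a = 0 ∧ polar q n w = 0 := by
  obtain ⟨g, -, g1, rfl, rfl⟩ := std h
  refine ⟨g.1 (ee + ff), ?_⟩
  rw [← g1, OG_map, OG_polar, OG_polar, OG_polar]
  decide +kernel

theorem dec : ∀ x : V6, x = x (.inl (.inl 0)) • vv + x (.inl (.inl 1)) • ee + x (.inl (.inr 1)) • ff + x (.inr 0) • a0 +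
    x (.inr 1) • w0 + polar q x vv • x0 := by decide +kernel

theorem oc {x y : V6} : (y = x ∨ y = x + vv) ↔ ∃ c : ZMod 2, y = x + c • vv :=
  ⟨fun h => h.elim (fun h => ⟨0, by simp [h]⟩) fun h => ⟨1, by simp [h]⟩, fun ⟨c, h⟩ => by
    rcases (by decide : ∀ c : ZMod 2, c = 0 ∨ c = 1) c with rfl | rfl <;> simp [h]⟩

theorem E_of {g : OG q} (h0 : g.1 vv = vv) (h1 : g.1 ee = ee ∨ g.1 ee = ee + vv) (h2 : g.1 ff = ff ∨ g.1 ff = ff + vv)
    (h3 : g.1 a0 = a0 ∨ g.1 a0 = a0 + vv) (h4 : g.1 w0 = w0 ∨ g.1 w0 = w0 + vv) : E g := ⟨h0, fun a ha => by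
  obtain ⟨c1, h1⟩ := oc.1 h1
  obtain ⟨c2, h2⟩ := oc.1 h2
  obtain ⟨c3, h3⟩ := oc.1 h3
  obtain ⟨c4, h4⟩ := oc.1 h4
  have e := dec a
  rw [ha, zero_smul, add_zero] at e
  refine oc.2 ⟨a (.inl (.inl 1)) * c1 + a (.inl (.inr 1)) * c2 + a (.inr 0) * c3 + a (.inr 1) * c4, ?_⟩
  have e' := congrArg g.1 e
  simp only [map_add, map_smul, h0, h1, h2, h3, h4] at e'
  linear_combination (norm := module) e' - e⟩

theorem E_mem {g : OG q} (h : E g) : g ∈ Om q := by
  obtain ⟨c1, h1⟩ := oc.1 (h.2 ee (by decide +kernel))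
  obtain ⟨c2, h2⟩ := oc.1 (h.2 ff (by decide +kernel))
  obtain ⟨c3, h3⟩ := oc.1 (h.2 a0 (by decide +kernel))
  obtain ⟨c4, h4⟩ := oc.1 (h.2 w0 (by decide +kernel))
  obtain ⟨b, b0, b1, b2, b3, b4⟩ := (by decide +kernel : ∀ c1 c2 c3 c4 : ZMod 2, ∃ b, polar q vv b = 0 ∧ polar q b ee = c1 ∧
    polar q b ff = c2 ∧ polar q b a0 = c3 ∧ polar q b w0 = c4) c1 c2 c3 c4
  have k : ∀ {x c}, polar q vv x = 0 → polar q b x = c → g.1 x = x + c • vv → ((sieg q vv b)⁻¹ * g).1 x = x :=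
    fun {x c} e1 e2 e3 => by rw [OG_mul_apply, e3, ← e2, ← sieg_apply_of_perp v0.2 b0 e1, OG_inv_apply_apply]
  have k0 := k (x := vv) (polar_self2 _) ((polar_comm _ _ _).trans b0) (by simp [h.1])
  have k1 := k (by decide +kernel) b1 h1
  have k2 := k (by decide +kernel) b2 h2
  have k3 := k (by decide +kernel) b3 h3
  have k4 := k (by decide +kernel) b4 h4
  generalize hs : (sieg q vv b)⁻¹ * g = s at k0 k1 k2 k3 k4
  have k5 : s.1 x0 = x0 := (by decide +kernel : ∀ y, q y = q x0 → polar q y vv = polar q x0 vv →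
      polar q y ee = polar q x0 ee → polar q y ff = polar q x0 ff → polar q y a0 = polar q x0 a0 →
      polar q y w0 = polar q x0 w0 → y = x0) _ (OG_map _ _) (by rw [← OG_polar s x0, k0]) (by rw [← OG_polar s x0, k1])
    (by rw [← OG_polar s x0, k2]) (by rw [← OG_polar s x0, k3]) (by rw [← OG_polar s x0, k4])
  have : s = 1 := OG_ext fun x => by
    have e := congrArg s.1 (dec x)
    simp only [map_add, map_smul, k0, k1, k2, k3, k4, k5] at e
    exact e.trans (dec x).symm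
  rw [← inv_mul_eq_one.1 (hs.trans this)]
  exact nd.sieg_mem_commutator good _ _

theorem f60 {g : OG q} (hg : g ∈ Om q) (h0 : g.1 vv = vv) (h3 : g.1 a0 = a0 ∨ g.1 a0 = a0 + vv)
    (h4 : g.1 w0 = w0 ∨ g.1 w0 = w0 + vv) : E g := by
  have p : ∀ {x y : V6}, polar q x vv = 0 → polar q x y = 0 → (g.1 y = y ∨ g.1 y = y + vv) → polar q (g.1 x) y = 0 :=
    fun {x y} e1 e2 e3 => by
      rw [← OG_polar g, h0] at e1
      rw [← OG_polar g] at e2
      rcases e3 with e | e <;> rw [e] at e2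
      · exact e2
      · rwa [polar_add_right, e1, add_zero] at e2
  have pv : ∀ {x : V6}, polar q x vv = 0 → polar q (g.1 x) vv = 0 := fun e => by rwa [← OG_polar g, h0] at e
  rcases (by decide +kernel : ∀ y, q y = q ee → polar q y vv = 0 → polar q y a0 = 0 → polar q y w0 = 0 → ∀ z, q z = q ff →
      polar q z vv = 0 → polar q z a0 = 0 → polar q z w0 = 0 → polar q y z = polar q ee ff →
      ((y = ee ∨ y = ee + vv) ∧ (z = ff ∨ z = ff + vv)) ∨ ((z = ee ∨ z = ee + vv) ∧ (y = ff ∨ y = ff + vv)))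
    _ (OG_map g _) (pv (by decide +kernel)) (p (by decide +kernel) (by decide +kernel) h3)
    (p (by decide +kernel) (by decide +kernel) h4) _ (OG_map g _) (pv (by decide +kernel))
    (p (by decide +kernel) (by decide +kernel) h3) (p (by decide +kernel) (by decide +kernel) h4) (OG_polar g _ _) with
    ⟨h1, h2⟩ | ⟨h1, h2⟩
  · exact E_of h0 h1 h2 h3 h4
  · have n1 : q (ee + ff) = 1 := by decide +kernel
    have r : ∀ {x y : V6}, x + polar q (ee + ff) x • (ee + ff) = y → (g * refl q (ee + ff)).1 x = g.1 y := fun e => by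
      rw [OG_mul_apply, refl2 n1, e]
    refine absurd ((mul_mem_cancel_left hg).1 (E_mem (E_of ?_ ?_ ?_ ?_ ?_))) (rn n1)
    · rwa [r (y := vv) (by decide +kernel)]
    · rwa [r (y := ff) (by decide +kernel)]
    · rwa [r (y := ee) (by decide +kernel)]
    · rwa [r (y := a0) (by decide +kernel)]
    · rwa [r (y := w0) (by decide +kernel)]

theorem f6 (a w : V6) (h : A a w) (g : OG q) (hg : g ∈ Om q) (h0 : g.1 vv = vv) (h3 : g.1 a = a ∨ g.1 a = a + vv)
    (h4 : g.1 w = w ∨ g.1 w = w + vv) : E g := by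
  obtain ⟨k, k0, k1, rfl, rfl⟩ := std h
  have k2 : (k⁻¹).1 vv = vv := by rw [← k1, OG_inv_apply_apply, k1]
  have t : ∀ {x : V6}, (g.1 (k.1 x) = k.1 x ∨ g.1 (k.1 x) = k.1 x + vv) ↔
      ((k⁻¹ * g * k).1 x = x ∨ (k⁻¹ * g * k).1 x = x + vv) := fun {x} => by
    rw [← k.1.injective.eq_iff (b := x), ← k.1.injective.eq_iff (b := x + vv), OG_mul_apply, OG_mul_apply, OG_apply_inv,
      map_add, k1]
  have := f60 (g := k⁻¹ * g * k) (mul_mem (mul_mem (inv_mem k0) hg) k0)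
    (by rw [OG_mul_apply, OG_mul_apply, k1, h0, k2]) (t.1 h3) (t.1 h4)
  refine ⟨h0, fun x hx => ?_⟩
  obtain ⟨y, rfl⟩ := k.1.surjective x
  exact t.2 (this.2 y (by rwa [← OG_polar k, k1]))

theorem f2 (y : OG q) (hy : y ∈ Om q) (h2 : y * y = 1) : ∃ g ∈ Om q, E (g * y * g⁻¹) := by
  have yy : ∀ x, y.1 (y.1 x) = x := fun x => by rw [← OG_mul_apply, h2]; rfl
  have N : ∀ x, subOne y x = y.1 x + x := fun x => by
    rw [subOne_apply, sub_eq_add_neg, neg_eq_of_add_eq_zero_left (add_self2 _)]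
  have yN : ∀ x, y.1 (subOne y x) = subOne y x := fun x => by rw [N, map_add, yy, add_comm]
  have sy : ∀ x z, polar q (subOne y x) z = polar q x (subOne y z) := fun x z => by
    rw [N, N, polar_add_left, polar_add_right, ← OG_polar y (y.1 x), yy]
  have qN : ∀ x, q (subOne y x) = polar q x (subOne y x) := fun x => by
    rw [N, Q_add, OG_map, polar_add_right, polar_self2, add_zero, polar_comm q x, add_self2, zero_add]
  have e1 := (nd.mem_commutator_iff_two good rfl y).1 hy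
  have e2 := rk_add_finrank_fixS y
  have e3 : rk y ≤ finrank (ZMod 2) (fixS y) := Submodule.finrank_mono (by
    rintro _ ⟨x, rfl⟩
    exact mem_fixS.2 (yN x))
  rw [show finrank (ZMod 2) V6 = 6 by simp] at e2
  rcases (by rw [Nat.even_iff] at e1; omega : rk y = 0 ∨ rk y = 2) with r | r
  · have : ∀ x, y.1 x = x := fun x => by
      have := (Submodule.finrank_eq_zero.1 r).le (LinearMap.mem_range_self (subOne y) x)
      rwa [Submodule.mem_bot, subOne_apply, sub_eq_zero] at this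
    exact ⟨1, one_mem _, by simpa using this _, fun a _ => .inl (by simpa using this a)⟩
  let φ := (finBasisOfFinrankEq (ZMod 2) _ r).equivFun
  have sp : ∀ p s t : LinearMap.range (subOne y), p ≠ 0 → s ≠ 0 → p ≠ s → ∃ α β : ZMod 2, t = α • p + β • s :=
    fun p s t h1 h2 h3 => by
      obtain ⟨α, β, e⟩ := (by decide : ∀ c d e : Fin 2 → ZMod 2, c ≠ 0 → d ≠ 0 → c ≠ d → ∃ α β : ZMod 2, e = α • c + β • d)
        (φ p) (φ s) (φ t) (φ.map_ne_zero_iff.2 h1) (φ.map_ne_zero_iff.2 h2) (φ.injective.ne h3)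
      exact ⟨α, β, φ.injective (by rw [e, map_add, map_smul, map_smul])⟩
  obtain ⟨⟨_, b, rfl⟩, u0, u1⟩ : ∃ u : LinearMap.range (subOne y), u ≠ 0 ∧ q u = 0 := by
    have z : ∀ c : ZMod 2, c = 0 ∨ c = 1 := by decide
    rcases z (q (φ.symm ![1, 0])) with c1 | c1
    · exact ⟨_, φ.symm.map_ne_zero_iff.2 (by decide), c1⟩
    rcases z (q (φ.symm ![0, 1])) with c2 | c2
    · exact ⟨_, φ.symm.map_ne_zero_iff.2 (by decide), c2⟩
    refine ⟨φ.symm (![1, 0] + ![0, 1]), φ.symm.map_ne_zero_iff.2 (by decide), ?_⟩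
    rw [map_add, Submodule.coe_add, Q_add, c1, c2]
    obtain ⟨x, hx⟩ := (φ.symm ![1, 0]).2
    obtain ⟨x', hx'⟩ := (φ.symm ![0, 1]).2
    rw [← hx, ← hx', sy, N (subOne y x'), yN, add_self2 (subOne y x'), polar_zero_right]
    rfl
  have u0' : subOne y b ≠ 0 := fun e => u0 (Subtype.ext e)
  obtain ⟨g, g0, g1⟩ := f1 _ u0' u1
  refine ⟨g, g0, by rw [← g1, OG_mul_apply, OG_mul_apply, OG_inv_apply_apply, yN], fun a ha => ?_⟩
  obtain ⟨a, rfl⟩ := g.1.surjective a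
  rw [← g1, OG_polar] at ha
  rw [OG_mul_apply, OG_mul_apply, OG_inv_apply_apply, ← g1, ← map_add, g.1.injective.eq_iff, g.1.injective.eq_iff]
  by_contra! hc
  refine u0' (nd _ fun x => ?_)
  obtain ⟨α, β, e⟩ := sp ⟨_, b, rfl⟩ ⟨_, a, rfl⟩ ⟨_, x, rfl⟩ u0
    (fun e => hc.1 (sub_eq_zero.1 ((subOne_apply y a).symm.trans (congrArg Subtype.val e))))
    fun e => hc.2 (by rw [show subOne y b = subOne y a from congrArg Subtype.val e, subOne_apply, add_sub_cancel])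
  rw [sy, show subOne y x = α • subOne y b + β • subOne y a from congrArg Subtype.val e, polar_add_right, polar_smul_right,
    polar_smul_right, ← qN, u1, ← sy, polar_comm, ha, smul_zero, smul_zero, add_zero]

end Cfsg.Agent.SzT.O1
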