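import Cfsg.Agent.SzT.A
import Cfsg.Agent.SzT.O1

set_option autoImplicit false

namespace Cfsg.Agent.SzT

theorem exists_of : ∃ v, OF v := ⟨_, O1.v0, O1.f1, O1.f2, O1.f4, O1.f5, O1.f6, O1.f7, O1.f8, O1.f9⟩

end Cfsg.Agent.SzT
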