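import Cfsg.Agent.H29.Ce1
import Cfsg.Agent.H10.Xsp4

/-! Coordinates for involution centralizers of shape `2 ^ (1 + 6) . Ω₆⁻(2)`. -/

set_option autoImplicit false

namespace Cfsg.Agent.SzT

open Cfsg Cfsg.Agent.H10 Cfsg.Agent.H29 Subgroup QuadraticMap

abbrev W : Type := I6 → ZMod 2
noncomputable abbrev Ω : Subgroup O6 := H13.Om Q6

/-- coordinates on `Q` -/
structure Co {G : Type*} [Group G] (z : G) (Q : Subgroup G) (ρ : centralizer ({z} : Set G) →* O6) (p : G → W) : Prop where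
  lx : LX Q z
  hr : ρ.range = Ω
  ker : ∀ h, ρ h = 1 ↔ (h : G) ∈ Q
  mul : ∀ {x y}, x ∈ Q → y ∈ Q → p (x * y) = p x + p y
  surj : ∀ v, ∃ x ∈ Q, p x = v
  zero : ∀ {x}, x ∈ Q → (p x = 0 ↔ x ∈ zpowers z)
  act : ∀ (h : centralizer ({z} : Set G)) {x : G}, x ∈ Q → p (h * x * (h : G)⁻¹) = (ρ h).1 (p x)
  sq : ∀ {x}, x ∈ Q → (x * x = 1 ↔ Q6 (p x) = 0)
  cm : ∀ {x y}, x ∈ Q → y ∈ Q → (x * y = y * x ↔ polar Q6 (p x) (p y) = 0)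

/-- `g` fixes `v` and acts trivially on `v^⊥ / v` -/
def EE (v : W) (g : O6) : Prop := g.1 v = v ∧ ∀ a, polar Q6 a v = 0 → g.1 a = a ∨ g.1 a = a + v

/-- an ordered basis of an anisotropic plane orthogonal to `v` -/
def AP (v a w : W) : Prop := polar Q6 a v = 0 ∧ polar Q6 w v = 0 ∧ Q6 a = 1 ∧ Q6 w = 1 ∧ polar Q6 a w = 1

/-- the facts used on `Ω₆⁻(2)` -/
structure OF (v : W) : Prop where
  v0 : v ≠ 0 ∧ Q6 v = 0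
  f1 : ∀ a, a ≠ 0 → Q6 a = 0 → ∃ g ∈ Ω, g.1 a = v
  f2 : ∀ y ∈ Ω, y * y = 1 → ∃ g ∈ Ω, EE v (g * y * g⁻¹)
  f4 : ∀ u, Q6 u = 0 → polar Q6 u v = 0 → u ≠ 0 → u ≠ v → ∃ g ∈ Ω, g.1 v = v ∧ Q6 (u + g.1 u) = 1
  f5 : ∀ a w a' w', AP v a w → AP v a' w' → ∃ g ∈ Ω, g.1 v = v ∧ (g.1 a = a' ∨ g.1 a = a' + v) ∧ (g.1 w = w' ∨ g.1 w = w' + v)
  f6 : ∀ a w, AP v a w → ∀ g ∈ Ω, g.1 v = v → (g.1 a = a ∨ g.1 a = a + v) → (g.1 w = w ∨ g.1 w = w + v) → EE v g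
  f7 : ∀ a w, polar Q6 a v = 0 → polar Q6 w v = 0 → Q6 a = 0 → Q6 w = 0 → polar Q6 a w = 0 →
    a = 0 ∨ a = v ∨ w = 0 ∨ w = v ∨ a = w ∨ a = w + v
  f8 : ∃ a w, AP v a w
  f9 : ∀ a w, AP v a w → ∃ n, Q6 n = 1 ∧ polar Q6 n v = 0 ∧ polar Q6 n a = 0 ∧ polar Q6 n w = 0

end Cfsg.Agent.SzT
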