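import Cfsg.Agent.SzT.G2

/-! Commutators and squares in `R`; the involutions of `C(z)`. -/

set_option autoImplicit false

namespace Cfsg.Agent.SzT

open Cfsg Cfsg.Agent.H10 Cfsg.Agent.H29 Subgroup QuadraticMap

variable {G : Type*} [Group G]

/-- involutions of the second kind -/
def TB (Q : Subgroup G) (p : G → W) (v : W) (s m y : G) : Prop :=
  ∃ a ∈ Q, ∃ a' ∈ Q, a * s = s * a ∧ a' * s = s * a' ∧ AP v (p a) (p a') ∧ y = a * (m * a' * m⁻¹)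

namespace Cx
variable {z : G} {Q : Subgroup G} {ρ : centralizer ({z} : Set G) →* O6} {p : G → W} {v : W} {s b m a a' r u x y c t : G}
  (h : Cx z Q ρ p v s b m) [Finite G]
include h

theorem psi2 (ha : a ∈ Q) (hs : a * s = s * a) :
    ∃ u, Vm z s u ∧ m * (m * a * m⁻¹) * m⁻¹ = u * a * (m * a * m⁻¹) := by
  have hz := h.psiz ha hs
  have hP := h.psiP ha
  have w := h.wpsi ha hs
  set r := m * a * m⁻¹ with hr
  have a1 : b⁻¹ * r * b * r⁻¹ ∈ Q := by convert mul_mem (inv_mem h.bQ) (h.lx.conj_mem hz h.bQ) using 1; group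
  have p1 : p (b⁻¹ * r * b * r⁻¹) = (sg ρ r).1 (p b) + p b := by
    have : b⁻¹ * r * b * r⁻¹ = b⁻¹ * (r * b * r⁻¹) := by group
    rw [this, h.co.mul (inv_mem h.bQ) (h.lx.conj_mem hz h.bQ), h.co.sg_act hz h.bQ, h.co.pinv h.bQ, add_comm]
  have e0 : m * r * m⁻¹ = b⁻¹ * (b * m * r) * (b * m)⁻¹ * b := by group
  rcases h.cP.cor h.lx hP with e | e
  · exact ⟨_, h.pv2 a1 ha (p1 ▸ w), by rw [e0, e]; group⟩
  · have a2 := mul_mem (mul_mem h.lx.mem h.sQ) a1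
    refine ⟨_, h.pv2 a2 ha ?_, by rw [e0, e, ← h.bs']; group⟩
    rw [h.co.mul (mul_mem h.lx.mem h.sQ) a1, h.pzs, p1]
    rcases w with w | w <;> rw [w]
    · exact .inr (add_comm _ _)
    · exact .inl (by rw [add_comm, add_assoc, ww, add_zero])

theorem pss (ha : a ∈ Q) (ha' : a' ∈ Q) : ∃ y, Vm z s y ∧ p y = polar Q6 (p a) (p a') • v ∧
    m * a * m⁻¹ * (m * a' * m⁻¹) = y * (m * a' * m⁻¹ * (m * a * m⁻¹)) := by
  have e0 : m * a * m⁻¹ * (m * a' * m⁻¹) = m * (a * a') * m⁻¹ := by group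
  rcases z2 (polar Q6 (p a) (p a')) with e | e
  · exact ⟨1, .inl rfl, by rw [e, zero_smul, h.co.p1], by rw [e0, (h.co.cm ha ha').2 e]; group⟩
  · exact ⟨s, .inr (.inr (.inl rfl)), by rw [e, one_smul, h.ps], by rw [e0, h.co.ncm ha ha' e, ← h.mz]; group⟩

theorem kk (ha : a ∈ Q) (hs : a * s = s * a) (ha' : a' ∈ Q) (hs' : a' * s = s * a') :
    m * a' * m⁻¹ * a * (m * a' * m⁻¹)⁻¹ * a⁻¹ = 1 ∨ m * a' * m⁻¹ * a * (m * a' * m⁻¹)⁻¹ * a⁻¹ = z * s := by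
  obtain ⟨u, hu, e1⟩ := h.psi2 ha' hs'
  obtain ⟨y, hy, py, e2⟩ := h.pss ha ha'
  have hx := h.kV ha' hs' (h.psiP ha) (h.psiz ha hs)
  have px := h.kp ha' hs' ha hs
  have c1 := hu.cm (h.psiz ha hs) (h.psis ha)
  have c2 := hy.cm (h.lx.cent _ ha') hs'
  have key : (m * (m * a' * m⁻¹ * a * (m * a' * m⁻¹)⁻¹ * a⁻¹) * m⁻¹)⁻¹ =
      u * ((m * a * m⁻¹ * a' * (m * a * m⁻¹)⁻¹ * a'⁻¹) * y) * u⁻¹ := by
    have e3 : (m * (m * a' * m⁻¹ * a * (m * a' * m⁻¹)⁻¹ * a⁻¹) * m⁻¹)⁻¹ =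
      m * a * m⁻¹ * (m * (m * a' * m⁻¹) * m⁻¹) * (m * a * m⁻¹)⁻¹ * (m * (m * a' * m⁻¹) * m⁻¹)⁻¹ := by group
    rw [e3, e1]
    generalize m * a * m⁻¹ = r at *
    generalize m * a' * m⁻¹ = r' at *
    calc _ = r * u * a' * r⁻¹ * (r * r') * r⁻¹ * r'⁻¹ * a'⁻¹ * u⁻¹ := by group
      _ = u * r * a' * r⁻¹ * a'⁻¹ * (a' * y) * a'⁻¹ * u⁻¹ := by rw [c1, e2]; group
      _ = _ := by rw [c2]; group
  have q1 := mul_mem (h.vQ hx) (h.vQ hy)
  have p0 := h.co.sg_act (h.lx.cent _ (h.vQ hu)) q1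
  rw [h.co.sg_Q (h.vQ hu), H13.OG_one_apply, h.co.mul (h.vQ hx) (h.vQ hy), px, py, polar_comm, ww, ← key] at p0
  have q2 := key ▸ h.lx.conj_mem (h.lx.cent _ (h.vQ hu)) q1
  generalize m * a' * m⁻¹ * a * (m * a' * m⁻¹)⁻¹ * a⁻¹ = k at *
  rcases h.lx.mem_z.1 ((h.co.zero q2).1 p0) with e | e
  · left; rw [inv_eq_one] at e; simpa using e
  · right
    rw [inv_eq_iff_eq_inv, h.lx.inv_z, ← h.mzs] at e
    simpa using e

theorem k0 (ha : a ∈ Q) (hs : a * s = s * a) (ha' : a' ∈ Q) (hs' : a' * s = s * a') (e : polar Q6 (p a) (p a') = 0) :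
    m * a' * m⁻¹ * a = a * (m * a' * m⁻¹) := by
  have e1 := h.kp ha hs ha' hs'
  rcases h.kk ha hs ha' hs' with k | k
  · rwa [mul_inv_eq_one, mul_inv_eq_iff_eq_mul] at k
  · rw [k, h.pzs, e, zero_smul] at e1; exact absurd e1 h.of.v0.1

theorem k1 (ha : a ∈ Q) (hs : a * s = s * a) (ha' : a' ∈ Q) (hs' : a' * s = s * a') (e : polar Q6 (p a) (p a') = 1) :
    m * a' * m⁻¹ * a = z * s * a * (m * a' * m⁻¹) := by
  have e1 := h.kp ha hs ha' hs'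
  rcases h.kk ha hs ha' hs' with k | k
  · rw [k, h.co.p1, e, one_smul] at e1; exact absurd e1.symm h.of.v0.1
  · rwa [mul_inv_eq_iff_eq_mul, mul_inv_eq_iff_eq_mul] at k

/-- the square of `a ψ(a')` -/
theorem sqR (ha : a ∈ Q) (hs : a * s = s * a) (ha' : a' ∈ Q) (hs' : a' * s = s * a') :
    ∃ k, (polar Q6 (p a) (p a') = 0 ∧ k = 1 ∨ polar Q6 (p a) (p a') = 1 ∧ k = z * s) ∧
      a * (m * a' * m⁻¹) * (a * (m * a' * m⁻¹)) = k * (a * a) * (m * (a' * a') * m⁻¹) := by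
  have e0 : a * (m * a' * m⁻¹) * (a * (m * a' * m⁻¹)) = a * (m * a' * m⁻¹ * a) * (m * a' * m⁻¹) := by group
  rcases z2 (polar Q6 (p a) (p a')) with e | e
  · exact ⟨1, .inl ⟨e, rfl⟩, by rw [e0, h.k0 ha hs ha' hs' e]; group⟩
  · have c : a * (z * s) = z * s * a := (Commute.mul_right (h.lx.cent _ ha) hs :)
    refine ⟨_, .inr ⟨e, rfl⟩, ?_⟩
    rw [e0, h.k1 ha hs ha' hs' e]
    calc _ = a * (z * s) * a * (m * (a' * a') * m⁻¹) := by group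
      _ = _ := by rw [c]; group

omit [Finite G] in
theorem sq1 (ha : a ∈ Q) : Q6 (p a) = 0 ∧ a * a = 1 ∨ Q6 (p a) = 1 ∧ a * a = z :=
  (z2 _).imp (fun e => ⟨e, (h.co.sq ha).2 e⟩) fun e => ⟨e, h.co.sqz ha e⟩

omit [Finite G] in
theorem sq2 (ha : a ∈ Q) : Q6 (p a) = 0 ∧ m * (a * a) * m⁻¹ = 1 ∨ Q6 (p a) = 1 ∧ m * (a * a) * m⁻¹ = s :=
  (h.sq1 ha).imp (fun e => ⟨e.1, by rw [e.2]; group⟩) fun e => ⟨e.1, by rw [e.2, h.mz]⟩

theorem sqV (ha : a ∈ Q) (hs : a * s = s * a) (ha' : a' ∈ Q) (hs' : a' * s = s * a') :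
    Vm z s (a * (m * a' * m⁻¹) * (a * (m * a' * m⁻¹))) := by
  obtain ⟨k, hk, e⟩ := h.sqR ha hs ha' hs'
  have v1 : Vm z s k := hk.elim (fun e => .inl e.2) fun e => .inr (.inr (.inr e.2))
  have v2 : Vm z s (a * a) := (h.sq1 ha).elim (fun e => .inl e.2) fun e => .inr (.inl e.2)
  have v3 : Vm z s (m * (a' * a') * m⁻¹) := (h.sq2 ha').elim (fun e => .inl e.2) fun e => .inr (.inr (.inl e.2))
  rw [e]
  exact h.QP (mul_mem (mul_mem (h.vQ v1) (h.vQ v2)) (h.vQ v3)) (((h.vP v1).mul h.lx (h.vP v2)).mul h.lx (h.vP v3))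

theorem sqI (ha : a ∈ Q) (hs : a * s = s * a) (ha' : a' ∈ Q) (hs' : a' * s = s * a')
    (e1 : a * (m * a' * m⁻¹) * (a * (m * a' * m⁻¹)) = 1) :
    Q6 (p a) = polar Q6 (p a) (p a') ∧ Q6 (p a') = polar Q6 (p a) (p a') := by
  obtain ⟨k, hk, e⟩ := h.sqR ha hs ha' hs'
  rw [e] at e1
  have n1 := h.lx.ne_one
  have n2 := h.cP.ne h.lx
  have n3 : z * s ≠ 1 := fun e => h.snz (by rw [← h.lx.inv_z]; exact (inv_eq_of_mul_eq_one_right e).symm)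
  have zsz : z * s * z = s := by rw [mul_assoc, h.sz, ← mul_assoc, h.zz, one_mul]
  rcases hk with ⟨f1, rfl⟩ | ⟨f1, rfl⟩ <;> rcases h.sq1 ha with ⟨f2, g2⟩ | ⟨f2, g2⟩ <;>
    rcases h.sq2 ha' with ⟨f3, g3⟩ | ⟨f3, g3⟩ <;> rw [g2, g3] at e1 <;> rw [f1, f2, f3] <;>
    simp only [mul_one, one_mul, zsz, mul_assoc z s s, h.ss] at e1 <;> first | exact ⟨rfl, rfl⟩ | contradiction

theorem inzs (ha : a ∈ Q) (hs : a * s = s * a) (ha' : a' ∈ Q) (hs' : a' * s = s * a') (e : p a = p a' ∨ p a = p a' + v) :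
    In Q z (a * (m * a' * m⁻¹)) (z * s) := by
  obtain ⟨u, hu, e1⟩ := h.psi2 ha' hs'
  have i1 : In Q z (u * a' * (m * a' * m⁻¹)) (z * s) := e1 ▸ h.ms ▸ (h.psiP ha').cj m
  have v1 := h.pv2 ha ha' e
  have vz : ∀ u, Vm z s u → In Q z u (z * s) := fun u hu => by
    have e2 : b * (b⁻¹ * u * b) * b⁻¹ = u := by group
    have : Vm z s (b⁻¹ * u * b) := h.pv (by simpa using h.lx.conj_mem (cz_inv h.bz) (h.vQ hu)) (by
      have := h.co.sg_act (cz_inv h.bz) (h.vQ hu)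
      rw [h.co.sg_Q (inv_mem h.bQ), H13.OG_one_apply, inv_inv] at this
      exact this ▸ h.vp hu)
    exact e2 ▸ h.bs ▸ (h.vP this).cj b
  convert ((vz _ v1).mul h.lx ((vz _ hu).inv)).mul h.lx i1 using 1; group

theorem cls (hz : y * z = z * y) (h2 : y * y = 1) : ∃ c, c * z = z * c ∧ (In Q z (c * y * c⁻¹) z ∨ In Q z (c * y * c⁻¹) s ∨
    In Q z (c * y * c⁻¹) (z * s) ∨ TB Q p v s m (c * y * c⁻¹)) := by
  obtain ⟨g, hg, e⟩ := h.of.f2 _ (h.co.sg_mem hz) (by rw [← sg_mul hz hz, h2, h.co.sg_Q Q.one_mem])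
  obtain ⟨c, hc, rfl⟩ := h.co.sg_surj hg
  rw [← sg_cj hc hz] at e
  refine ⟨c, hc, ?_⟩
  have h3 : c * y * c⁻¹ * (c * y * c⁻¹) = 1 := by
    calc _ = c * (y * y) * c⁻¹ := by group
      _ = _ := by rw [h2]; group
  obtain ⟨a, ha, a', ha', hs', e1⟩ := h.dec (cz_cj hc hz) e
  rw [e1] at h3 ⊢
  have rz := h.psiz ha' hs'
  rcases z2 (polar Q6 (p a) v) with e2 | e2
  · have hs := (h.perp ha).2 e2
    obtain ⟨f1, f2⟩ := h.sqI ha hs ha' hs' h3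
    rcases z2 (polar Q6 (p a) (p a')) with e3 | e3 <;> rw [e3] at f1 f2
    · have i1 : p a = 0 ∨ p a = v → In Q z (a * (m * a' * m⁻¹)) s := fun e => (h.vP (h.pv ha e)).mul h.lx (h.psiP ha')
      have i2 : p a' = 0 ∨ p a' = v → In Q z (a * (m * a' * m⁻¹)) z := fun e => in_of_mem (mul_mem ha (by
        rcases h.pv ha' e with e | e | e | e <;> rw [e]
        · simp
        · exact h.mz ▸ h.sQ
        · exact h.ms ▸ mul_mem h.lx.mem h.sQ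
        · exact h.mzs.symm ▸ h.lx.mem))
      rcases h.of.f7 _ _ e2 ((h.perp ha').1 hs') f1 f2 e3 with e | e | e | e | e | e
      exacts [.inr (.inl (i1 (.inl e))), .inr (.inl (i1 (.inr e))), .inl (i2 (.inl e)), .inl (i2 (.inr e)),
        .inr (.inr (.inl (h.inzs ha hs ha' hs' (.inl e)))), .inr (.inr (.inl (h.inzs ha hs ha' hs' (.inr e))))]
    · exact .inr (.inr (.inr ⟨a, ha, a', ha', hs, hs', ⟨e2, (h.perp ha').1 hs', f1, f2, e3⟩, rfl⟩))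
  · left
    refine in_of_mem (mul_mem ha ((h.co.sg_one rz).1 ?_))
    have ee := h.eeA ha' hs'
    have v3 : Vm z s (m * (a' * a') * m⁻¹) := (h.sq2 ha').elim (fun e => .inl e.2) fun e => .inr (.inr (.inl e.2))
    have e4 : m * (a' * a') * m⁻¹ = (a * (m * a' * m⁻¹ * a * (m * a' * m⁻¹)⁻¹))⁻¹ := by
      rw [eq_inv_iff_mul_eq_one, mul_eq_one_comm, ← h3]; group
    have e5 := h.vp v3
    rw [e4, h.co.pinv (mul_mem ha (h.lx.conj_mem rz ha)), h.co.mul ha (h.lx.conj_mem rz ha), h.co.sg_act rz ha, add_comm] at e5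
    refine ee_ext h.hv h.hβ ee ee_one ?_
    rw [H13.OG_one_apply, ww, zero_add]
    rcases ee_im h.hv h.hβ ee e2 with e6 | e6 <;> rw [e6] at e5
    · exact e5
    · exact e5.symm.imp (fun e => by simpa using e) weq.1

end Cx

end Cfsg.Agent.SzT
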